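import Mathlib
import Cfsg.Agent.Lib.Deg.FewDeg
import Cfsg.Agent.Lib.Char.BurnsidePQ

/-!
An abelian subgroup of index at most `(b!)²` in a group with character degrees at most `b`.
-/

set_option autoImplicit false

namespace H87

open Cfsg H6
open scoped ComplexConjugate commutatorElement Pointwise

set_option linter.unusedSectionVars false

universe u

variable {G : Type*} [Group G] [Finite G]

/-- There is an abelian subgroup of index at most `n`. -/
def HasAb (n : ℕ) (G : Type*) [Group G] : Prop :=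
  ∃ A : Subgroup G, (∀ x ∈ A, ∀ y ∈ A, x * y = y * x) ∧ A.index ≤ n

theorem HasAb.of_subgroup {n m k : ℕ} {H : Subgroup G} (h : HasAb n H) (hm : H.index ≤ m)
    (hk : n * m ≤ k) : HasAb k G := by
  obtain ⟨A, h1, h2⟩ := h
  refine ⟨A.map H.subtype, ?_, (Subgroup.index_map_subtype A).trans_le
    ((Nat.mul_le_mul h2 hm).trans hk)⟩
  rintro _ ⟨x, hx, rfl⟩ _ ⟨y, hy, rfl⟩
  exact congrArg Subtype.val (h1 x hx y hy)

theorem exists_small_class [Nontrivial G] {b : ℕ}
    (hb : ∀ χ, IsIrrCharacter G χ → charDegree χ ≤ b) :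
    ∃ x : G, x ≠ 1 ∧ (Subgroup.centralizer {x}).index ≤ b ^ 2 := by
  classical
  by_contra! h
  have := Fintype.ofFinite (ConjClasses G)
  have h1 := Group.sum_card_conj_classes_eq_card G
  have h2 := sum_deg_sq (G := G)
  have h3 := card_irr_eq_card_conjClasses (G := G)
  rw [finsum_eq_sum_of_fintype, ← Finset.add_sum_erase _ _ (Finset.mem_univ (ConjClasses.mk 1)),
    H80.ncard_carrier_mk] at h1
  rw [← Finset.add_sum_erase _ _ (Finset.mem_univ ⟨_, isIrrCharacter_one⟩), deg_one] at h2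
  have h4 := Finset.sum_le_card_nsmul (Finset.univ.erase ⟨_, isIrrCharacter_one⟩)
    (fun χ : IrrCharacter G => charDegree (χ : G → ℂ) ^ 2) (b ^ 2)
    fun χ _ => Nat.pow_le_pow_left (hb _ χ.2) 2
  obtain ⟨x, hx⟩ := exists_ne (1 : G)
  have h5 := Finset.sum_lt_sum_of_nonempty (s := Finset.univ.erase (ConjClasses.mk (1 : G)))
    (f := fun _ => b ^ 2) (g := fun C => C.carrier.ncard) ⟨ConjClasses.mk x, by
      simpa [ConjClasses.mk_eq_mk_iff_isConj] using hx⟩ fun C hC => by
      obtain ⟨y, rfl⟩ := ConjClasses.mk_surjective C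
      rw [H80.ncard_carrier_mk]
      exact h y fun e => (Finset.mem_erase.1 hC).1 (e ▸ rfl)
  have : 0 < (Subgroup.centralizer ({1} : Set G)).index :=
    Nat.pos_of_ne_zero Subgroup.index_ne_zero_of_finite
  rw [Finset.sum_const, Finset.card_erase_of_mem (Finset.mem_univ _), Finset.card_univ,
    ← Nat.card_eq_fintype_card, ← h3] at h5
  rw [Finset.card_erase_of_mem (Finset.mem_univ _), Finset.card_univ,
    ← Nat.card_eq_fintype_card] at h4
  omega

theorem hasAb_aux (b : ℕ) : ∀ (G : Type u) [Group G] [Finite G],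
    (∀ χ, IsIrrCharacter G χ → charDegree χ ≤ b) → HasAb (b.factorial ^ 2) G := by
  induction b using Nat.strong_induction_on with
  | _ b ih =>
  intro G _ _ hb
  by_cases hc : commutator G ≤ ⊥
  · exact ⟨⊤, fun x _ y _ => commutatorElement_eq_one_iff_mul_comm.1
      (hc (Subgroup.commutator_mem_commutator trivial trivial)), by
        rw [Subgroup.index_top]; exact Nat.one_le_pow _ _ b.factorial_pos⟩
  obtain ⟨c, rfl⟩ : ∃ c, b = c + 1 := Nat.exists_eq_add_one_of_ne_zero fun e => by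
    have := hb _ isIrrCharacter_one
    rw [deg_one] at this; omega
  have ih1 : ∀ (H : Type u) [Group H] [Finite H], (∀ θ, IsIrrCharacter H θ → charDegree θ < c + 1) →
      HasAb (c.factorial ^ 2) H := fun H _ _ h => ih c c.lt_succ_self H fun θ hθ =>
    Nat.lt_succ_iff.1 (h θ hθ)
  have hf : c.factorial ^ 2 * (c + 1) ^ 2 ≤ (c + 1).factorial ^ 2 := by
    rw [Nat.factorial_succ, mul_pow, mul_comm]
  have hsub : ∀ (H : Subgroup G) θ, IsIrrCharacter H θ → charDegree θ ≤ c + 1 := fun H θ hθ => by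
    obtain ⟨χ, hχ, h⟩ := exists_deg_le hθ
    exact h.trans (hb χ hχ)
  obtain ⟨K, hK, -⟩ := exists_maxNA inferInstance hc
  have := hK.normal
  by_cases hn : ∀ a ∈ commutator G, ∀ b ∈ commutator G, ⁅a, b⁆ ∈ K
  · rcases hK.cases hn with ⟨p, Z, τ, hA⟩ | ⟨p, N, hB⟩
    · refine (ih1 Z fun θ hθ => ?_).of_subgroup
        (hA.sq ▸ Nat.pow_le_pow_left (hb τ hA.irr) 2) hf
      rcases hA.deg_lt hb hθ with h | ⟨χ, hχ, -, h⟩
      · have := hA.one_lt
        have := deg_pos hθ
        nlinarith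
      · exact h.trans_le (hb χ hχ)
    have := hB.normal
    have h1 := hB.one_lt
    obtain ⟨τ, hτ, -, hτd⟩ := hB.deg
    have h2 : N.index ≤ c + 1 := hτd ▸ hb τ hτ
    have h3 : ∀ ψ, IsIrrCharacter N ψ → c + 1 ≤ charDegree ψ → ¬ ∃ χ, IsIrrCharacter G χ ∧
        charDegree χ = N.index * charDegree ψ := fun ψ hψ h ⟨χ, hχ, e⟩ => by
      have := hb χ hχ
      nlinarith
    by_cases h4 : ∀ ψ, IsIrrCharacter N ψ → charDegree ψ < c + 1
    · exact (ih1 N h4).of_subgroup (h2.trans (Nat.le_self_pow two_ne_zero _)) hf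
    push Not at h4
    obtain ⟨ψ, hψ, h4⟩ := h4
    have h5 : p ≤ c + 1 := (Nat.le_of_dvd (deg_pos hψ)
      ((hB.deg_or_dvd hψ).resolve_left (h3 ψ hψ h4))).trans (hsub N ψ hψ)
    obtain ⟨k, hk⟩ := hB.relIndex_eq
    have := Fact.mk hB.prime
    obtain ⟨M, hM⟩ := Sylow.exists_subgroup_card_pow_prime (G := N ⧸ K.subgroupOf N) p (n := k)
      ((pow_dvd_pow p k.le_succ).trans hk.symm.dvd)
    have h6 : (M.comap (QuotientGroup.mk' _)).index = p := by
      have := M.card_mul_index
      rw [hM, show Nat.card (N ⧸ K.subgroupOf N) = _ from hk, pow_succ] at this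
      rw [Subgroup.index_comap_of_surjective _ (QuotientGroup.mk'_surjective _)]
      exact Nat.eq_of_mul_eq_mul_left (pow_pos hB.prime.pos k) this
    refine ((ih1 (M.comap (QuotientGroup.mk' _)) fun θ hθ => not_le.1 fun h7 => ?_).of_subgroup
      (h6.trans_le h5) le_rfl).of_subgroup h2 (by rwa [mul_assoc, ← pow_two])
    obtain ⟨η, hη, ho⟩ := exists_over hθ
    have h8 := ho.eq_of_deg_le (irr_isCharacter hη) hθ ((hsub N η hη).trans h7)
    have h9 := eq_top_of_res_of_vanish hη (funext h8 ▸ hθ) fun g hg =>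
      (hB.deg_or_vanish hη).resolve_left (h3 η hη (h7.trans (ho.deg_le (irr_isCharacter hη) hθ))) g
        fun h => hg (show (g : N ⧸ K.subgroupOf N) ∈ M from
          ((QuotientGroup.eq_one_iff (N := K.subgroupOf N) g).2 h).symm ▸ one_mem M)
    exact hB.prime.ne_one (h6.symm.trans (Subgroup.index_eq_one.2 h9))
  let f := QuotientGroup.mk' K
  have hf' := QuotientGroup.mk'_surjective K
  have hq : ∀ θ, IsIrrCharacter (G ⧸ K) θ → charDegree θ ≤ c + 1 := fun θ hθ =>
    hb _ (isIrr_infl K hθ)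
  have hm : (commutator G).map f ≤ commutator (G ⧸ K) := by
    rw [map_commutator_eq]; exact Subgroup.commutator_mono le_top le_top
  have h5 : 4 ≤ c := not_lt.1 fun hlt => hn (hK.comm_of_isSolvable (H8.isSolvable_of_two_primes
    Nat.prime_two Nat.prime_three fun r hr h1 => not_not.1 fun h2 => hn fun a ha b hb => by
      have := Fact.mk hr
      have h3 : ∀ θ, IsIrrCharacter (G ⧸ K) θ → charDegree θ < r := fun θ hθ => by
        have := hq θ hθ
        have := hr.five_le_of_ne_two_of_ne_three (fun e => h2 (.inl e)) fun e => h2 (.inr e)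
        omega
      obtain ⟨R⟩ : Nonempty (Sylow r (G ⧸ K)) := inferInstance
      have h4 := hK.quotient.le_of_lt _ (sylow_normal_of_deg_lt h3 R)
        (bot_lt_iff_ne_bot.2 (R.ne_bot_of_dvd_card h1))
      exact (QuotientGroup.eq_one_iff _).1 (commutatorElement_eq_one_iff_mul_comm.2
        (comm_of_deg_lt R.isPGroup' h3 _ (h4 (hm ⟨a, ha, rfl⟩)) _ (h4 (hm ⟨b, hb, rfl⟩))))))
  have : Nontrivial (G ⧸ K) := QuotientGroup.nontrivial_iff.2 fun e => hK.not_le (e ▸ le_top)
  obtain ⟨x, hx, h1⟩ := exists_small_class hq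
  obtain ⟨x, rfl⟩ := hf' x
  set H := (Subgroup.centralizer {f x}).comap f
  have h2 : H.index ≤ (c + 1) ^ 2 := by rwa [Subgroup.index_comap_of_surjective _ hf']
  by_cases h3 : ∀ θ, IsIrrCharacter H θ → charDegree θ < c + 1
  · exact (ih1 H h3).of_subgroup h2 hf
  push Not at h3
  obtain ⟨θ, hθ, h3⟩ := h3
  have hKH : K ≤ H := fun k hk => Subgroup.mem_centralizer_singleton_iff.2 (by
    rw [show f k = 1 from (QuotientGroup.eq_one_iff k).2 hk, one_mul, mul_one])
  have h4 : H.normalCore ≤ K := not_not.1 fun h4 => hn fun a ha b hb => by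
    have h6 := (hK.le_of_lt _ inferInstance (lt_of_le_not_ge (Subgroup.normal_le_normalCore.2 hKH)
      h4)).trans H.normalCore_le
    have h7 := hK.le_of_lt ((Subgroup.centralizer ((commutator G).map f : Set (G ⧸ K))).comap f)
      (haveI := (inferInstance : (commutator G).Normal).map f hf'; inferInstance)
      (lt_of_le_not_ge (fun k hk y _ => by
        rw [show f k = 1 from (QuotientGroup.eq_one_iff k).2 hk, one_mul, mul_one])
        fun h => hx ((QuotientGroup.eq_one_iff x).2 (h (by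
          rintro _ ⟨y, hy, rfl⟩; exact Subgroup.mem_centralizer_singleton_iff.1 (h6 hy)))))
    exact (QuotientGroup.eq_one_iff _).1 (commutatorElement_eq_one_iff_mul_comm.2
      (h7 hb _ ⟨a, ha, rfl⟩))
  have h6 := Nat.le_of_dvd (pow_pos (deg_pos hθ) 2) (index_dvd_deg_sq_of_vanish
    (N := K.subgroupOf H) hθ fun g hg => not_not.1 fun h => hg (h4 (mem_normalCore_of_forall_ext hθ
      (forall_ext_of_max hθ fun χ hχ => (hb χ hχ).trans h3) g h)))
  have h7 : K.index ≤ (c + 1) ^ 2 * (c + 1) ^ 2 := by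
    rw [← Subgroup.relIndex_mul_index hKH]
    exact Nat.mul_le_mul (h6.trans (Nat.pow_le_pow_left (hsub H θ hθ) 2)) h2
  obtain ⟨β, hβ, h8, h9⟩ : ∃ β, IsIrrCharacter G β ∧ K ≤ charKer β ∧ charDegree β ≠ 1 := by
    by_contra! h
    exact hK.not_le (commutator_le_of_forall_deg h)
  obtain ⟨d, rfl⟩ : ∃ d, c = d + 2 := ⟨c - 2, by omega⟩
  refine (ih d (by omega) K fun η hη => ?_).of_subgroup h7 ?_
  · obtain ⟨χ, hχ, ho⟩ := exists_over hη
    obtain ⟨k, e, -⟩ := ho.exists_deg_eq hχ hη
    have h10 := hb χ hχ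
    have h11 := deg_pos hχ
    by_cases hk : k = 1
    · rw [hk, one_mul] at e
      obtain ⟨h12, h13⟩ := exists_deg_eq_mul_of_res hχ
        (funext (ho.eq_of_deg_le (irr_isCharacter hχ) hη e.le) ▸ hη) hβ h8
      have := hb _ h12
      have h14 : 2 ≤ charDegree β := by have := deg_pos hβ; omega
      have := Nat.mul_le_mul_right (charDegree χ) h14
      omega
    · have h14 : 2 ≤ k := by rcases k with _ | k <;> omega
      have := Nat.mul_le_mul_right (charDegree η) h14
      omega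
  · rw [← mul_pow, ← mul_pow, Nat.factorial_succ, Nat.factorial_succ, Nat.factorial_succ]
    refine Nat.pow_le_pow_left ?_ 2
    have : d + 2 + 1 ≤ (d + 1 + 1) * (d + 1) := by nlinarith
    calc _ = (d + 2 + 1) * ((d + 2 + 1) * d.factorial) := by ring
      _ ≤ (d + 2 + 1) * ((d + 1 + 1) * (d + 1) * d.factorial) := by gcongr
      _ = _ := by ring

theorem hasAb_factorial_sq {b : ℕ} (h : ∀ χ, IsIrrCharacter G χ → charDegree χ ≤ b) :
    HasAb (b.factorial ^ 2) G := hasAb_aux b G h

end H87
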